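import Mathlib

/-!
Witt's lemma on transitive extensions: the double coset union `K ∪ K s K` is a group.
-/

set_option autoImplicit false

namespace Cfsg.Agent.WittExtension

variable {α : Type*}

section Abstract

variable {W : Type*} [Group W]

/-- If `s² ∈ K` and `s K s ⊆ K ∪ K s K` then `⟨K, s⟩ = K ∪ K s K`. -/
theorem closure_coset_union (K : Subgroup W) (s : W) (h2 : s ^ 2 ∈ K)
    (hkey : ∀ k ∈ K, s * k * s ∈ K ∨ ∃ a ∈ K, ∃ b ∈ K, s * k * s = a * s * b)
    {g : W} (hg : g ∈ Subgroup.closure ((K : Set W) ∪ {s})) :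
    g ∈ K ∨ ∃ a ∈ K, ∃ b ∈ K, g = a * s * b := by
  induction hg using Subgroup.closure_induction with
  | mem x hx =>
    rcases hx with hx | hx
    · exact Or.inl hx
    · rw [Set.mem_singleton_iff] at hx
      exact Or.inr ⟨1, K.one_mem, 1, K.one_mem, by simp [hx]⟩
  | one => exact Or.inl K.one_mem
  | mul x y hx hy ihx ihy =>
    rcases ihx with hx | ⟨a, ha, b, hb, rfl⟩
    · rcases ihy with hy | ⟨c, hc, d, hd, rfl⟩
      · exact Or.inl (K.mul_mem hx hy)
      · exact Or.inr ⟨x * c, K.mul_mem hx hc, d, hd, by group⟩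
    · rcases ihy with hy | ⟨c, hc, d, hd, rfl⟩
      · exact Or.inr ⟨a, ha, b * y, K.mul_mem hb hy, by group⟩
      · rcases hkey (b * c) (K.mul_mem hb hc) with h | ⟨u, hu, v, hv, h⟩
        · left
          have : a * s * b * (c * s * d) = a * (s * (b * c) * s) * d := by group
          rw [this]
          exact K.mul_mem (K.mul_mem ha h) hd
        · right
          refine ⟨a * u, K.mul_mem ha hu, v * d, K.mul_mem hv hd, ?_⟩
          have : a * s * b * (c * s * d) = a * (s * (b * c) * s) * d := by group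
          rw [this, h]; group
  | inv x hx ih =>
    rcases ih with hx | ⟨a, ha, b, hb, rfl⟩
    · exact Or.inl (K.inv_mem hx)
    · refine Or.inr ⟨b⁻¹ * (s ^ 2)⁻¹, K.mul_mem (K.inv_mem hb) (K.inv_mem h2), a⁻¹,
        K.inv_mem ha, ?_⟩
      group

end Abstract

/-- `K` is transitive on injective `n`-tuples of points of `S`. -/
def TupTrans (K : Subgroup (Equiv.Perm α)) (n : ℕ) (S : Set α) : Prop :=
  ∀ x y : Fin n → α, Function.Injective x → Function.Injective y →
    (∀ i, x i ∈ S) → (∀ i, y i ∈ S) → ∃ g ∈ K, ∀ i, g (x i) = y i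

theorem tupTrans_succ {K L : Subgroup (Equiv.Perm α)} {n : ℕ} {S T : Set α} {p : α}
    (hKL : K ≤ L) (hK : TupTrans K n S) (hKp : ∀ k ∈ K, k p = p)
    (hT : ∀ a ∈ T, a ≠ p → a ∈ S) (hmap : ∀ g ∈ L, ∀ a ∈ T, g a ∈ T)
    (htr : ∀ a ∈ T, ∃ g ∈ L, g a = p) : TupTrans L (n + 1) T := by
  intro x y hx hy hxT hyT
  obtain ⟨g, hgL, hg⟩ := htr _ (hxT 0)
  obtain ⟨f, hfL, hf⟩ := htr _ (hyT 0)
  obtain ⟨k, hk, hk'⟩ := hK (fun i => g (x i.succ)) (fun i => f (y i.succ))
    (g.injective.comp (hx.comp (Fin.succ_injective n)))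
    (f.injective.comp (hy.comp (Fin.succ_injective n)))
    (fun i => hT _ (hmap g hgL _ (hxT _)) (by
      rw [← hg]; exact fun h => Fin.succ_ne_zero i (hx (g.injective h))))
    (fun i => hT _ (hmap f hfL _ (hyT _)) (by
      rw [← hf]; exact fun h => Fin.succ_ne_zero i (hy (f.injective h))))
  refine ⟨f⁻¹ * (k * g), L.mul_mem (L.inv_mem hfL) (L.mul_mem (hKL hk) hgL), fun i => ?_⟩
  simp only [Equiv.Perm.mul_apply]
  induction i using Fin.cases with
  | zero => rw [hg, hKp k hk, ← hf]; simp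
  | succ i => rw [hk' i]; simp

/-- The chain `G_{q 2} ≤ G ≤ ⟨G, s 2⟩ ≤ …`. -/
def chain (B : Subgroup (Equiv.Perm α)) (s : ℕ → Equiv.Perm α) : ℕ → Subgroup (Equiv.Perm α)
  | 0 => B
  | j + 1 => Subgroup.closure ((chain B s j : Set (Equiv.Perm α)) ∪ {s (j + 1)})

theorem chain_le_succ (B : Subgroup (Equiv.Perm α)) (s : ℕ → Equiv.Perm α) (j : ℕ) :
    chain B s j ≤ chain B s (j + 1) := fun _ hx => Subgroup.subset_closure (Or.inl hx)

theorem base_le_chain (B : Subgroup (Equiv.Perm α)) (s : ℕ → Equiv.Perm α) :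
    ∀ j, B ≤ chain B s j
  | 0 => le_rfl
  | j + 1 => le_trans (base_le_chain B s j) (chain_le_succ B s j)

theorem mem_chain_succ (B : Subgroup (Equiv.Perm α)) (s : ℕ → Equiv.Perm α) (j : ℕ) :
    s (j + 1) ∈ chain B s (j + 1) := Subgroup.subset_closure (Or.inr rfl)

/-- The hypotheses of the lemma. -/
structure Hyp (t : ℕ) (q : ℕ → α) (G H : Subgroup (Equiv.Perm α)) (s : ℕ → Equiv.Perm α) :
    Prop where
  two_le : 2 ≤ t
  q_inj : ∀ i j : ℕ, 1 ≤ i → i ≤ t → 1 ≤ j → j ≤ t → q i = q j → i = j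
  fixes : ∀ g ∈ G, ∀ i : ℕ, 3 ≤ i → i ≤ t → g (q i) = q i
  double : ∀ a b c d : α, (∀ i, 3 ≤ i → i ≤ t → a ≠ q i ∧ b ≠ q i ∧ c ≠ q i ∧ d ≠ q i) →
    a ≠ b → c ≠ d → ∃ g ∈ G, g a = c ∧ g b = d
  s1_mem : s 1 ∈ G
  s1_q : s 1 (q 1) = q 2 ∧ s 1 (q 2) = q 1
  s_q : ∀ i : ℕ, 2 ≤ i → i + 1 ≤ t → s i (q i) = q (i + 1) ∧ s i (q (i + 1)) = q i ∧
    ∀ j : ℕ, 1 ≤ j → j ≤ t → j ≠ i → j ≠ i + 1 → s i (q j) = q j
  H_eq : H = G ⊓ MulAction.stabilizer (Equiv.Perm α) (q 1) ⊓
    MulAction.stabilizer (Equiv.Perm α) (q 2)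
  sq : ∀ i : ℕ, 1 ≤ i → i + 1 ≤ t → s i ^ 2 ∈ H
  braid : ∀ i : ℕ, 1 ≤ i → i + 2 ≤ t → (s i * s (i + 1)) ^ 3 ∈ H
  comm : ∀ i j : ℕ, 1 ≤ i → i + 2 ≤ j → j + 1 ≤ t →
    (s i * s j) ^ 2 ∈ H ∧ (s j * s i) ^ 2 ∈ H
  norm : ∀ i : ℕ, 2 ≤ i → i + 1 ≤ t →
    ∀ g ∈ G ⊓ MulAction.stabilizer (Equiv.Perm α) (q 2),
      s i * g * (s i)⁻¹ ∈ G ⊓ MulAction.stabilizer (Equiv.Perm α) (q 2)

/-- The points moved by the `j`-th group of the chain. -/
def dom (t : ℕ) (q : ℕ → α) (j : ℕ) : Set α :=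
  {a | ∀ i, j + 2 ≤ i → i ≤ t → a ≠ q i}

theorem dom_mapsTo {t : ℕ} {q : ℕ → α} {j : ℕ} {g : Equiv.Perm α}
    (hg : ∀ i, j + 2 ≤ i → i ≤ t → g (q i) = q i) {a : α} (ha : a ∈ dom t q j) :
    g a ∈ dom t q j := fun i h1 h2 h => ha i h1 h2 (g.injective (h.trans (hg i h1 h2).symm))

variable {t : ℕ} {q : ℕ → α} {G H : Subgroup (Equiv.Perm α)} {s : ℕ → Equiv.Perm α}

/-- The invariant carried along the chain. -/
structure Good (t : ℕ) (q : ℕ → α) (K : ℕ → Subgroup (Equiv.Perm α))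
    (s : ℕ → Equiv.Perm α) (j : ℕ) : Prop where
  fixes : ∀ g ∈ K (j + 1), ∀ i, j + 3 ≤ i → i ≤ t → g (q i) = q i
  stab : ∀ g ∈ K (j + 1), g (q (j + 2)) = q (j + 2) → g ∈ K j
  coset : ∀ g ∈ K (j + 1), g ∈ K j ∨ ∃ a ∈ K j, ∃ b ∈ K j, g = a * s (j + 1) * b
  trans' : ∀ a ∈ dom t q (j + 1), ∀ b ∈ dom t q (j + 1), ∃ g ∈ K (j + 1), g a = b
  tup : TupTrans (K (j + 1)) (j + 2) (dom t q (j + 1))

namespace Hyp

theorem H_le (h : Hyp t q G H s) :
    H ≤ G ⊓ MulAction.stabilizer (Equiv.Perm α) (q 2) := by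
  rw [h.H_eq]
  exact fun x hx => ⟨hx.1.1, hx.2⟩

theorem H_le_chain (h : Hyp t q G H s) (j : ℕ) :
    H ≤ chain (G ⊓ MulAction.stabilizer (Equiv.Perm α) (q 2)) s j :=
  le_trans h.H_le (base_le_chain _ s j)

theorem q_mem_dom (h : Hyp t q G H s) {i j : ℕ} (hi : 1 ≤ i) (hij : i ≤ j + 1) (hit : i ≤ t) :
    q i ∈ dom t q j := by
  intro k hk1 hk2 he
  have := h.q_inj i k hi hit (by omega) hk2 he
  omega

theorem chain_one (h : Hyp t q G H s) :
    chain (G ⊓ MulAction.stabilizer (Equiv.Perm α) (q 2)) s 1 = G := by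
  set B := G ⊓ MulAction.stabilizer (Equiv.Perm α) (q 2) with hB
  apply le_antisymm
  · exact (Subgroup.closure_le _).2 (Set.union_subset (fun x hx => hx.1)
      (Set.singleton_subset_iff.2 h.s1_mem))
  · intro g hg
    by_cases hg2 : g (q 2) = q 2
    · exact base_le_chain B s 1 ⟨hg, hg2⟩
    · have hq12 : q 1 ≠ q 2 := fun e => by
        have := h.q_inj 1 2 le_rfl (by have := h.two_le; omega) (by omega) h.two_le e; omega
      obtain ⟨f, hf, hf2, hf1⟩ := h.double (q 2) (g (q 2)) (q 2) (q 1) (by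
        intro i h3 hit
        have hne : q 2 ≠ q i := fun e => by
          have := h.q_inj 2 i (by omega) h.two_le (by omega) hit e; omega
        have hne1 : q 1 ≠ q i := fun e => by
          have := h.q_inj 1 i le_rfl (by omega) (by omega) hit e; omega
        exact ⟨hne, fun e => hne (g.injective (e.trans (h.fixes g hg i h3 hit).symm)), hne, hne1⟩)
        (Ne.symm hg2) hq12.symm
      have hk : (s 1)⁻¹ ^ 1 * (f * g) ∈ B := by
        refine ⟨G.mul_mem (G.pow_mem (G.inv_mem h.s1_mem) 1) (G.mul_mem hf hg), ?_⟩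
        show ((s 1)⁻¹ ^ 1 * (f * g)) • q 2 = q 2
        simp only [pow_one, Equiv.Perm.smul_def, Equiv.Perm.mul_apply, hf1]
        rw [Equiv.Perm.inv_eq_iff_eq]
        exact h.s1_q.2.symm
      have hfB : f ∈ B := ⟨hf, hf2⟩
      have : g = f⁻¹ * (s 1 * ((s 1)⁻¹ ^ 1 * (f * g))) := by group
      rw [this]
      exact Subgroup.mul_mem _ (Subgroup.inv_mem _ (base_le_chain B s 1 hfB))
        (Subgroup.mul_mem _ (mem_chain_succ B s 0) (base_le_chain B s 1 hk))

/-- `s j` normalises the groups of the chain two or more steps below. -/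
theorem conj_mem (h : Hyp t q G H s) {j : ℕ} (hj : 2 ≤ j) (hjt : j + 1 ≤ t) :
    ∀ i, i + 2 ≤ j →
      ∀ g ∈ chain (G ⊓ MulAction.stabilizer (Equiv.Perm α) (q 2)) s i,
        s j * g * (s j)⁻¹ ∈ chain (G ⊓ MulAction.stabilizer (Equiv.Perm α) (q 2)) s i := by
  set B := G ⊓ MulAction.stabilizer (Equiv.Perm α) (q 2) with hB
  intro i
  induction i with
  | zero => exact fun _ => h.norm j hj hjt
  | succ i ih =>
    intro hij g hg
    have hc : s j * s (i + 1) * (s j)⁻¹ ∈ chain B s (i + 1) := by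
      have h1 := h.H_le_chain (i + 1) (h.comm (i + 1) j (by omega) hij hjt).1
      have h2 := h.H_le_chain (i + 1) (h.sq j (by omega) hjt)
      have : s j * s (i + 1) * (s j)⁻¹ =
          (s (i + 1))⁻¹ * (s (i + 1) * s j) ^ 2 * (s j ^ 2)⁻¹ := by
        simp only [pow_two]; group
      rw [this]
      exact Subgroup.mul_mem _ (Subgroup.mul_mem _ (Subgroup.inv_mem _ (mem_chain_succ B s i)) h1)
        (Subgroup.inv_mem _ h2)
    revert hg
    intro hg
    have hle : chain B s (i + 1) ≤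
        (chain B s (i + 1)).comap (MulAut.conj (s j)).toMonoidHom := by
      refine (Subgroup.closure_le _).2 ?_
      rintro x (hx | hx)
      · exact chain_le_succ B s i (ih (by omega) x hx)
      · rw [Set.mem_singleton_iff] at hx
        subst hx
        exact hc
    exact hle hg

theorem inv_conj_mem (h : Hyp t q G H s) {j i : ℕ} (hj : 2 ≤ j) (hjt : j + 1 ≤ t) (hi : i + 2 ≤ j)
    {g : Equiv.Perm α}
    (hg : g ∈ chain (G ⊓ MulAction.stabilizer (Equiv.Perm α) (q 2)) s i) :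
    (s j)⁻¹ * g * s j ∈ chain (G ⊓ MulAction.stabilizer (Equiv.Perm α) (q 2)) s i := by
  have h2 := h.H_le_chain i (h.sq j (by omega) hjt)
  have : (s j)⁻¹ * g * s j = (s j ^ 2)⁻¹ * (s j * g * (s j)⁻¹) * s j ^ 2 := by
    simp only [pow_two]; group
  rw [this]
  exact Subgroup.mul_mem _ (Subgroup.mul_mem _ (Subgroup.inv_mem _ h2)
    (h.conj_mem hj hjt i hi g hg)) h2

theorem good (h : Hyp t q G H s) : ∀ j, j + 2 ≤ t →
    Good t q (chain (G ⊓ MulAction.stabilizer (Equiv.Perm α) (q 2)) s) s j := by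
  set B := G ⊓ MulAction.stabilizer (Equiv.Perm α) (q 2) with hB
  intro j
  induction j with
  | zero =>
    intro _
    have hK : chain B s 1 = G := h.chain_one
    have h2dom : q 2 ∈ dom t q 1 := h.q_mem_dom (by omega) le_rfl h.two_le
    have h1dom : q 1 ∈ dom t q 1 := h.q_mem_dom le_rfl (by omega) (by have := h.two_le; omega)
    have hcoset : ∀ g ∈ chain B s 1, g ∈ B ∨ ∃ a ∈ B, ∃ b ∈ B, g = a * s 1 * b := by
      intro g hg
      rw [hK] at hg
      by_cases hg2 : g (q 2) = q 2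
      · exact Or.inl ⟨hg, hg2⟩
      · obtain ⟨f, hf, hf2, hf1⟩ := h.double (q 2) (g (q 2)) (q 2) (q 1) (by
          intro i h3 hit
          exact ⟨h2dom i h3 hit, fun e => h2dom i h3 hit
            (g.injective (e.trans (h.fixes g hg i h3 hit).symm)), h2dom i h3 hit,
            h1dom i h3 hit⟩) (Ne.symm hg2) (fun e => by
            have := h.q_inj 2 1 (by omega) h.two_le le_rfl (by have := h.two_le; omega) e; omega)
        refine Or.inr ⟨f⁻¹, B.inv_mem ⟨hf, hf2⟩, (s 1)⁻¹ * (f * g),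
          ⟨G.mul_mem (G.inv_mem h.s1_mem) (G.mul_mem hf hg), ?_⟩, by group⟩
        show ((s 1)⁻¹ * (f * g)) • q 2 = q 2
        simp only [Equiv.Perm.smul_def, Equiv.Perm.mul_apply, hf1]
        rw [Equiv.Perm.inv_eq_iff_eq]
        exact h.s1_q.2.symm
    refine ⟨fun g hg i h3 hit => h.fixes g (hK ▸ hg) i h3 hit,
      fun g hg hfix => ⟨hK ▸ hg, hfix⟩, hcoset, ?_, ?_⟩
    · intro a ha b hb
      by_cases hab : a = b
      · exact ⟨1, Subgroup.one_mem _, by simp [hab]⟩
      · obtain ⟨g, hg, h1, -⟩ := h.double a b b a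
          (fun i h3 hit => ⟨ha i h3 hit, hb i h3 hit, hb i h3 hit, ha i h3 hit⟩) hab (Ne.symm hab)
        exact ⟨g, hK.symm ▸ hg, h1⟩
    · intro x y hx hy hxd hyd
      obtain ⟨g, hg, h1, h2⟩ := h.double (x 0) (x 1) (y 0) (y 1)
        (fun i h3 hit => ⟨hxd 0 i h3 hit, hxd 1 i h3 hit, hyd 0 i h3 hit, hyd 1 i h3 hit⟩)
        (fun e => absurd (hx e) (by decide)) (fun e => absurd (hy e) (by decide))
      exact ⟨g, hK.symm ▸ hg, Fin.forall_fin_two.2 ⟨h1, h2⟩⟩
  | succ j ih =>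
    intro hjt
    obtain ⟨hfix, hstab, hcoset, htr, htup⟩ := ih (by omega)
    obtain ⟨hsA, hsB, hsC⟩ := h.s_q (j + 2) (by omega) (by omega)
    have hs2 : s (j + 2) ^ 2 ∈ chain B s (j + 1) :=
      h.H_le_chain _ (h.sq (j + 2) (by omega) (by omega))
    have hkey : ∀ k ∈ chain B s (j + 1), s (j + 2) * k * s (j + 2) ∈ chain B s (j + 1) ∨
        ∃ a ∈ chain B s (j + 1), ∃ b ∈ chain B s (j + 1),
          s (j + 2) * k * s (j + 2) = a * s (j + 2) * b := by
      intro k hk
      rcases hcoset k hk with hk | ⟨a, ha, b, hb, rfl⟩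
      · left
        have : s (j + 2) * k * s (j + 2) =
            (s (j + 2) * k * (s (j + 2))⁻¹) * s (j + 2) ^ 2 := by
          simp only [pow_two]; group
        rw [this]
        exact Subgroup.mul_mem _ (chain_le_succ B s j
          (h.conj_mem (by omega) (by omega) j le_rfl k hk)) hs2
      · right
        have hA := chain_le_succ B s j (h.conj_mem (by omega) (by omega) j (le_refl (j + 2)) a ha)
        have hB' := chain_le_succ B s j
          (h.inv_conj_mem (j := j + 2) (by omega) (by omega) le_rfl hb)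
        have hbr : (s (j + 1) * s (j + 2)) ^ 3 ∈ chain B s (j + 1) :=
          h.H_le_chain _ (h.braid (j + 1) (by omega) (by omega))
        have hr := Subgroup.inv_mem _ (mem_chain_succ B s j)
        refine ⟨(s (j + 2) * a * (s (j + 2))⁻¹) * ((s (j + 1))⁻¹ *
            (s (j + 1) * s (j + 2)) ^ 3 * (s (j + 2) ^ 2)⁻¹),
          Subgroup.mul_mem _ hA (Subgroup.mul_mem _ (Subgroup.mul_mem _ hr hbr)
            (Subgroup.inv_mem _ hs2)),
          (s (j + 1))⁻¹ * ((s (j + 2))⁻¹ * b * s (j + 2)),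
          Subgroup.mul_mem _ hr hB', ?_⟩
        simp only [pow_succ, pow_zero, one_mul]
        group
    have hfix' : ∀ g ∈ chain B s (j + 2), ∀ i, j + 4 ≤ i → i ≤ t → g (q i) = q i := by
      intro g hg i h1 h2
      have hle : chain B s (j + 2) ≤ MulAction.stabilizer (Equiv.Perm α) (q i) := by
        refine (Subgroup.closure_le _).2 ?_
        rintro x (hx | hx)
        · exact hfix x hx i (by omega) h2
        · rw [Set.mem_singleton_iff] at hx
          subst hx
          exact hsC i (by omega) h2 (by omega) (by omega)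
      exact hle hg
    have hcoset' : ∀ g ∈ chain B s (j + 2), g ∈ chain B s (j + 1) ∨
        ∃ a ∈ chain B s (j + 1), ∃ b ∈ chain B s (j + 1), g = a * s (j + 2) * b :=
      fun g hg => closure_coset_union _ _ hs2 hkey hg
    have hp : ∀ k ∈ chain B s (j + 1), k (q (j + 3)) = q (j + 3) :=
      fun k hk => hfix k hk (j + 3) le_rfl (by omega)
    have hne : q (j + 2) ≠ q (j + 3) := fun e => by
      have := h.q_inj (j + 2) (j + 3) (by omega) (by omega) (by omega) (by omega) e; omega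
    have hred : ∀ a ∈ dom t q (j + 2), a ≠ q (j + 3) → a ∈ dom t q (j + 1) := by
      intro a ha hap i h1 h2
      rcases eq_or_ne i (j + 3) with rfl | hi
      · exact hap
      · exact ha i (by omega) h2
    have hto : ∀ a ∈ dom t q (j + 2), ∃ g ∈ chain B s (j + 2), g a = q (j + 3) := by
      intro a ha
      by_cases hap : a = q (j + 3)
      · exact ⟨1, Subgroup.one_mem _, by simp [hap]⟩
      · obtain ⟨g, hg, hga⟩ := htr a (hred a ha hap) (q (j + 2))
          (h.q_mem_dom (by omega) le_rfl (by omega))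
        exact ⟨s (j + 2) * g, Subgroup.mul_mem _ (mem_chain_succ B s (j + 1))
          (chain_le_succ B s (j + 1) hg), by simp [Equiv.Perm.mul_apply, hga, hsA]⟩
    refine ⟨hfix', ?_, hcoset', ?_, ?_⟩
    · intro g hg hgp
      rcases hcoset' g hg with hg | ⟨a, ha, b, hb, rfl⟩
      · exact hg
      · exfalso
        simp only [Equiv.Perm.mul_apply, hp b hb, hsB] at hgp
        exact hne (a.injective (hgp.trans (hp a ha).symm))
    · intro a ha b hb
      obtain ⟨g, hg, hga⟩ := hto a ha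
      obtain ⟨f, hf, hfb⟩ := hto b hb
      exact ⟨f⁻¹ * g, Subgroup.mul_mem _ (Subgroup.inv_mem _ hf) hg,
        by simp [Equiv.Perm.mul_apply, hga, ← hfb]⟩
    · exact tupTrans_succ (chain_le_succ B s (j + 1)) htup hp hred
        (fun g hg a ha => dom_mapsTo (hfix' g hg) ha) hto

theorem chain_last (h : Hyp t q G H s) {n : ℕ} (hn : t = n + 2) :
    chain (G ⊓ MulAction.stabilizer (Equiv.Perm α) (q 2)) s (n + 1) =
      Subgroup.closure ((G : Set (Equiv.Perm α)) ∪
        {x | ∃ i : ℕ, 2 ≤ i ∧ i + 1 ≤ t ∧ x = s i}) := by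
  set B := G ⊓ MulAction.stabilizer (Equiv.Perm α) (q 2) with hB
  apply le_antisymm
  · have key : ∀ m, m ≤ n + 1 → chain B s m ≤ Subgroup.closure ((G : Set (Equiv.Perm α)) ∪
        {x | ∃ i : ℕ, 2 ≤ i ∧ i + 1 ≤ t ∧ x = s i}) := by
      intro m
      induction m with
      | zero => exact fun _ x hx => Subgroup.subset_closure (Or.inl hx.1)
      | succ m ihm =>
        intro hm
        refine (Subgroup.closure_le _).2 ?_
        rintro x (hx | hx)
        · exact ihm (by omega) hx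
        · rw [Set.mem_singleton_iff] at hx
          subst hx
          rcases Nat.eq_zero_or_pos m with rfl | hm0
          · exact Subgroup.subset_closure (Or.inl h.s1_mem)
          · exact Subgroup.subset_closure (Or.inr ⟨m + 1, by omega, by omega, rfl⟩)
    exact key _ le_rfl
  · have mono : ∀ a b, a ≤ b → chain B s a ≤ chain B s b := by
      intro a b hab
      induction hab with
      | refl => exact le_rfl
      | step _ ih => exact le_trans ih (chain_le_succ B s _)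
    refine (Subgroup.closure_le _).2 ?_
    rintro x (hx | ⟨i, hi, hit, rfl⟩)
    · exact mono 1 (n + 1) (by omega) (h.chain_one.symm ▸ hx)
    · obtain ⟨i', rfl⟩ : ∃ i', i = i' + 1 := ⟨i - 1, by omega⟩
      exact mono (i' + 1) (n + 1) (by omega) (mem_chain_succ B s i')

theorem main (h : Hyp t q G H s) :
    MulAction.IsMultiplyPretransitive ↥(Subgroup.closure ((G : Set (Equiv.Perm α)) ∪
        {x | ∃ i : ℕ, 2 ≤ i ∧ i + 1 ≤ t ∧ x = s i})) α t ∧
      Subgroup.closure ((G : Set (Equiv.Perm α)) ∪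
        {x | ∃ i : ℕ, 2 ≤ i ∧ i + 1 ≤ t ∧ x = s i}) ⊓
        fixingSubgroup (Equiv.Perm α) {x | ∃ i : ℕ, 1 ≤ i ∧ i ≤ t ∧ x = q i} = H := by
  set B := G ⊓ MulAction.stabilizer (Equiv.Perm α) (q 2) with hB
  obtain ⟨n, rfl⟩ : ∃ n, t = n + 2 := ⟨t - 2, by have := h.two_le; omega⟩
  rw [← h.chain_last rfl]
  constructor
  · constructor
    intro x y
    obtain ⟨g, hg, hxy⟩ := (h.good n le_rfl).tup x y x.injective y.injective
      (fun i k h1 h2 => absurd h2 (by omega)) (fun i k h1 h2 => absurd h2 (by omega))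
    exact ⟨⟨g, hg⟩, Function.Embedding.ext fun i => hxy i⟩
  · apply le_antisymm
    · have key : ∀ m, m ≤ n + 1 → ∀ g ∈ chain B s m,
          (∀ i, 1 ≤ i → i ≤ n + 2 → g (q i) = q i) → g ∈ H := by
        intro m
        induction m with
        | zero =>
          intro _ g hg hfix
          rw [h.H_eq]
          exact ⟨⟨hg.1, hfix 1 le_rfl (by omega)⟩, hg.2⟩
        | succ m ihm =>
          intro hm g hg hfix
          exact ihm (by omega) g
            ((h.good m (by omega)).stab g hg (hfix (m + 2) (by omega) (by omega))) hfix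
      rintro g ⟨hg, hfix⟩
      exact key _ le_rfl g hg fun i h1 h2 =>
        (mem_fixingSubgroup_iff _).1 hfix _ ⟨i, h1, h2, rfl⟩
    · intro g hg
      refine ⟨h.H_le_chain _ hg, (mem_fixingSubgroup_iff _).2 ?_⟩
      rintro _ ⟨i, h1, h2, rfl⟩
      have hg' : g ∈ G ⊓ MulAction.stabilizer (Equiv.Perm α) (q 1) ⊓
          MulAction.stabilizer (Equiv.Perm α) (q 2) := h.H_eq ▸ hg
      rcases eq_or_ne i 1 with rfl | hi1
      · exact hg'.1.2
      rcases eq_or_ne i 2 with rfl | hi2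
      · exact hg'.2
      · exact h.fixes g hg'.1.1 i (by omega) h2

end Hyp

end Cfsg.Agent.WittExtension
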